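import Cfsg.Agent.Lib.Helper86.J2U.Data
import Cfsg.Agent.Lib.Helper86.Sp4.PermChain
import Cfsg.Agent.Lib.Helper56.P6048
import Cfsg.Agent.Lib.Helper60.J2PermData

/-!
# Kernel checks for the subgroup `PSU₃(3)` of index 100 in the Hall–Janko group
-/

set_option autoImplicit false

namespace Cfsg.Agent.Lib.Helper86.J2U

open Cfsg.Agent.Lib.Helper86.PermChain Cfsg.Agent.Lib.Helper56.P6048

/-- the row of a letter of a word in `A`, `B`, `B⁻¹` -/
def nd : ℕ → ℕ
  | 0 => 0
  | 1 => nB
  | _ => nBi

/-- the action of a word on a point -/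
noncomputable def runW (w : List ℕ) (p : ℕ) : ℕ := w.foldr (fun l q => tb (nd l) q) p

/-- the mask of the image of the short orbit under a map -/
noncomputable def msk (f : ℕ → ℕ) : ℕ → ℕ
  | 0 => 0
  | n + 1 => Nat.add (msk f n) (cond (Nat.testBit DM n) (Nat.pow 2 (f n)) 0)

/-- the mask of the coset `j` -/
noncomputable def mk (j : ℕ) : ℕ := msk (tb (rn j)) 315

/-- the action table of a generator -/
noncomputable def ac (s j : ℕ) : ℕ := cond (Nat.beq s 0) (acA j) (acB j)

/-- check of a spanning tree -/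
noncomputable def treeOK : List (ℕ × ℕ × ℕ) → List ℕ → Bool
  | [], _ => true
  | (c, p, s) :: rest, vis =>
    vis.any (fun v => Nat.beq v p) && Nat.beq (ac s p) c && treeOK rest (c :: vis)

set_option maxRecDepth 100000 in
theorem chk_tab : ∀ t, t < 4 → ∀ p, p < 315 →
    tb t p = ((Cfsg.Agent.H60J2.j2Tab.getD t []).getD p 0) % 315 := by decide +kernel

set_option maxRecDepth 100000 in
theorem chk_slp : ∀ k, k < nM → 4 ≤ k → slpOK tb si sj 315 k = true := by decide +kernel

set_option maxRecDepth 100000 in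
theorem chk_rel : ∀ w ∈ relsL, ∀ p, p < 315 → runW w p = p := by decide +kernel

set_option maxRecDepth 100000 in
theorem chk_inv : ∀ p, p < 315 → tb nBi p < 315 ∧ tb nB (tb nBi p) = p := by decide +kernel

set_option maxRecDepth 100000 in
theorem chk_delta : ∀ p, p < 315 → Nat.testBit DM (tb 0 p) = Nat.testBit DM p ∧
    Nat.testBit DM (tb nB p) = Nat.testBit DM p := by decide +kernel

set_option maxRecDepth 100000 in
theorem chk_nodup : ((List.range 100).map mk).Nodup := by decide +kernel

theorem chk_rn : ∀ j, j < 100 → rn j < nM := by decide +kernel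

set_option maxRecDepth 100000 in
theorem chk_act : ∀ j, j < 100 → acA j < 100 ∧ acB j < 100 ∧
    msk (fun p => tb 0 (tb (rn j) p)) 315 = mk (acA j) ∧
    msk (fun p => tb nB (tb (rn j) p)) 315 = mk (acB j) := by decide +kernel

theorem chk_kap : ∀ j, j < 100 → kap (acA j) = kap j ∧ kap (acB j) = kap j := by decide +kernel

theorem chk_tree1 : treeOK tree1 [j1] = true := by decide +kernel

theorem chk_tree2 : treeOK tree2 [j2] = true := by decide +kernel

theorem chk_cov1 : ∀ j, j < 100 → kap j = 1 → j = j1 ∨ j ∈ tree1.map Prod.fst := by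
  decide +kernel

theorem chk_cov2 : ∀ j, j < 100 → kap j = 2 → j = j2 ∨ j ∈ tree2.map Prod.fst := by
  decide +kernel

theorem chk_cnt : ((Finset.range 100).filter (fun j => kap j = 1)).card = 36 ∧
    ((Finset.range 100).filter (fun j => kap j = 2)).card = 63 := by decide +kernel

theorem chk_j : j1 < 100 ∧ j2 < 100 ∧ kap j1 = 1 ∧ kap j2 = 2 := by decide +kernel

theorem chk_ne : tb 0 1 ≠ 1 := by decide +kernel

theorem chk_nB : nB < nM := by decide

end Cfsg.Agent.Lib.Helper86.J2U
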