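import Cfsg.Agent.Lib.Helper86.J2U.Chk
import Cfsg.Agent.Lib.Helper56.SU33

/-!
# A subgroup `PSU₃(3)` of index 100 with suborbits 1, 36, 63 in a group of order 604800 acting
faithfully on 315 points by the four generating reflections of the Hall–Janko group
-/

set_option autoImplicit false

namespace Cfsg.Agent.Lib.Helper86.J2UMain

open Cfsg.Agent.Lib.Helper86.J2U Cfsg.Agent.Lib.Helper86.PermChain
open Cfsg.Agent.Lib.Helper56

/-- the elements preserving a function on a set with a group action -/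
def fixFun {G X : Type*} [Group G] [MulAction G X] (f : X → ℕ) : Subgroup G where
  carrier := {h | ∀ q, f (h • q) = f q}
  one_mem' := fun q => by rw [one_smul]
  mul_mem' := fun {x y} hx hy q => by rw [mul_smul, hx, hy]
  inv_mem' := fun {x} hx q => by
    have := hx (x⁻¹ • q)
    rw [smul_inv_smul] at this
    exact this.symm

theorem range_le_of {G : Type*} [Group G] (K : Subgroup G) (ψ : P6048.P →* G)
    (hx : ψ P6048.x ∈ K) (hy : ψ P6048.y ∈ K) : ψ.range ≤ K := by
  rintro _ ⟨z, rfl⟩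
  have h : (⊤ : Subgroup P6048.P) ≤ K.comap ψ := by
    rw [← P6048.gen_top, Subgroup.closure_le]
    rintro _ ⟨l, hl, rfl⟩
    have hl' : l < 3 := hl
    change ψ (P6048.gl l) ∈ K
    interval_cases l
    · exact hx
    · exact hy
    · change ψ (P6048.y⁻¹) ∈ K
      rw [map_inv]
      exact K.inv_mem hy
  exact h (Subgroup.mem_top z)

theorem msk_eq (f : ℕ → ℕ) (n : ℕ) : msk f n =
    ∑ i ∈ Finset.range n, (if Nat.testBit DM i = true then 2 ^ f i else 0) := by
  induction n with
  | zero => rfl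
  | succ n ih =>
    rw [Finset.sum_range_succ, ← ih]
    change msk f n + cond (Nat.testBit DM n) (2 ^ f n) 0 = _
    congr 1
    cases Nat.testBit DM n <;> simp

theorem tree_reach (R : ℕ → Prop) (hstep : ∀ s p, R p → R (ac s p)) :
    ∀ (l : List (ℕ × ℕ × ℕ)) (vis : List ℕ), (∀ v ∈ vis, R v) → treeOK l vis = true →
      ∀ x ∈ l, R x.1
  | [], _, _, _, x, hx => by simp at hx
  | (c, p, s) :: rest, vis, hv, h, x, hx => by
    rw [treeOK, Bool.and_eq_true, Bool.and_eq_true] at h
    obtain ⟨⟨h1, h2⟩, h3⟩ := h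
    obtain ⟨v, hvm, hvp⟩ := List.any_eq_true.1 h1
    have hp : R p := by
      have := hv v hvm
      rwa [Nat.eq_of_beq_eq_true hvp] at this
    have hc : R c := by
      have := hstep s p hp
      rwa [Nat.eq_of_beq_eq_true h2] at this
    rcases List.mem_cons.1 hx with rfl | hx'
    · exact hc
    · exact tree_reach R hstep rest (c :: vis) (fun v hv' => by
        rcases List.mem_cons.1 hv' with rfl | hv''
        · exact hc
        · exact hv v hv'') h3 x hx'

section

variable {G : Type} [Group G] (ρ : G →* Equiv.Perm (Fin 315))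

/-- `x` acts as the row `k` -/
def Rep (x : G) (k : ℕ) : Prop := ∀ p : Fin 315, ((ρ x p : Fin 315) : ℕ) = tb k p.1

/-- the short orbit -/
noncomputable def Dl : Finset (Fin 315) := Finset.univ.filter (fun p => Nat.testBit DM p.1 = true)

/-- the mask of the image of the short orbit -/
noncomputable def mu (x : G) : ℕ := ∑ p ∈ Dl, 2 ^ ((ρ x p : Fin 315) : ℕ)

/-- the elements preserving the short orbit -/
def stabD : Subgroup G where
  carrier := {h | ∀ p : Fin 315, Nat.testBit DM ((ρ h p : Fin 315) : ℕ) = Nat.testBit DM p.1}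
  one_mem' := fun p => by rw [map_one]; rfl
  mul_mem' := fun {x y} hx hy p => by rw [map_mul, Equiv.Perm.mul_apply, hx, hy]
  inv_mem' := fun {x} hx p => by
    have h := hx (ρ x⁻¹ p)
    have e : ρ x (ρ x⁻¹ p) = p := by
      rw [← Equiv.Perm.mul_apply, ← map_mul, mul_inv_cancel, map_one]
      rfl
    rw [e] at h
    exact h.symm

theorem mu_mul (x h : G) (hh : h ∈ stabD ρ) : mu ρ (x * h) = mu ρ x := by
  unfold mu
  apply Finset.sum_equiv (ρ h)
  · intro p
    simp only [Dl, Finset.mem_filter, Finset.mem_univ, true_and]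
    rw [hh p]
  · intro p _
    rw [map_mul, Equiv.Perm.mul_apply]

theorem mu_rep {x : G} {f : ℕ → ℕ} (h : ∀ p : Fin 315, ((ρ x p : Fin 315) : ℕ) = f p.1) :
    mu ρ x = msk f 315 := by
  unfold mu Dl
  rw [msk_eq, Finset.sum_filter, ← Fin.sum_univ_eq_sum_range]
  apply Finset.sum_congr rfl
  intro p _
  rw [h p]

theorem rep_unique (hinj : Function.Injective ρ) {x y : G} {k : ℕ} (hx : Rep ρ x k)
    (hy : Rep ρ y k) : x = y := by
  apply hinj
  apply Equiv.ext
  intro p
  apply Fin.ext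
  rw [hx p, hy p]

theorem rep_exists (g : Fin 4 → G) (hg : ∀ t : Fin 4, Rep ρ (g t) t.1) :
    ∀ k, k < nM → ∃ x : G, Rep ρ x k := by
  have h := good_all (P := ρ.range) (T := tb) si sj 4 nM
    (fun k hk => ⟨ρ (g ⟨k, hk⟩), ⟨_, rfl⟩, hg ⟨k, hk⟩⟩) (fun k h4 hk => chk_slp k hk h4)
  intro k hk
  obtain ⟨x, ⟨y, rfl⟩, hx⟩ := h k hk
  exact ⟨y, hx⟩

theorem lett_rep {a b : G} (ha : Rep ρ a 0) (hb : Rep ρ b nB) (l : ℕ) (q : Fin 315) :
    ((ρ (P6048.lett a b l) q : Fin 315) : ℕ) = tb (nd l) q.1 := by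
  rcases l with _ | _ | l
  · exact ha q
  · exact hb q
  · change ((ρ b⁻¹ q : Fin 315) : ℕ) = tb nBi q.1
    obtain ⟨h1, h2⟩ := chk_inv q.1 q.2
    have h3 : ρ b ⟨tb nBi q.1, h1⟩ = q := by
      apply Fin.ext
      rw [hb]
      exact h2
    have h4 : ρ b⁻¹ q = ⟨tb nBi q.1, h1⟩ := by
      rw [map_inv, Equiv.Perm.inv_eq_iff_eq]
      exact h3.symm
    rw [h4]

theorem word_rep {a b : G} (ha : Rep ρ a 0) (hb : Rep ρ b nB) (w : List ℕ) :
    ∀ q : Fin 315, ((ρ ((w.map (P6048.lett a b)).prod) q : Fin 315) : ℕ) = runW w q.1 := by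
  induction w with
  | nil =>
    intro q
    rw [List.map_nil, List.prod_nil, map_one]
    rfl
  | cons l w ih =>
    intro q
    rw [List.map_cons, List.prod_cons, map_mul, Equiv.Perm.mul_apply, lett_rep ρ ha hb, ih]
    rfl

theorem rel_hold (hinj : Function.Injective ρ) {a b : G} (ha : Rep ρ a 0) (hb : Rep ρ b nB) :
    ∀ w ∈ P6048.relsL, (w.map (P6048.lett a b)).prod = 1 := by
  intro w hw
  apply hinj
  rw [map_one]
  apply Equiv.ext
  intro q
  apply Fin.ext
  rw [word_rep ρ ha hb, chk_rel w hw q.1 q.2]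
  rfl

/-- **A subgroup `PSU₃(3)` of index 100 with suborbits of lengths 36 and 63.** -/
theorem main (hinj : Function.Injective ρ) (hcard : Nat.card G = 604800) (g : Fin 4 → G)
    (hg : ∀ t : Fin 4, Rep ρ (g t) t.1) :
    ∃ H : Subgroup G, H.index = 100 ∧
      (∃ (F : Type) (_ : Field F) (_ : Fintype F), Fintype.card F = 9 ∧
        Nonempty (↥H ≃* Cfsg.PSU 3 F 3)) ∧
      ∃ c₁ c₂ : G ⧸ H, (MulAction.orbit ↥H c₁).ncard = 36 ∧
        (MulAction.orbit ↥H c₂).ncard = 63 := by
  classical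
  have hfin : Finite G := Nat.finite_of_card_ne_zero (by rw [hcard]; norm_num)
  have hex := rep_exists ρ g hg
  obtain ⟨b, hb⟩ := hex nB chk_nB
  have ha : Rep ρ (g 0) 0 := hg 0
  generalize g 0 = a at ha
  have hrel := rel_hold ρ hinj ha hb
  have hψx : P6048.hom a b hrel P6048.x = a := P6048.hom_x a b hrel
  have hψy : P6048.hom a b hrel P6048.y = b := P6048.hom_y a b hrel
  generalize P6048.hom a b hrel = ψ at hψx hψy
  have ha1 : a ≠ 1 := by
    intro h
    have h1 := ha ⟨1, by norm_num⟩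
    rw [h, map_one] at h1
    exact chk_ne h1.symm
  have hψinj : Function.Injective ψ := P6048S.inj_of_ne ψ (by rw [hψx]; exact ha1)
  have hHcard : Nat.card ψ.range = 6048 := by
    rw [← P6048S.card_P]
    exact (Nat.card_congr (MonoidHom.ofInjective hψinj).toEquiv).symm
  have hidx : ψ.range.index = 100 := by
    have h := ψ.range.card_mul_index
    rw [hHcard, hcard] at h
    omega
  have haH : a ∈ ψ.range := ⟨_, hψx⟩
  have hbH : b ∈ ψ.range := ⟨_, hψy⟩
  refine ⟨ψ.range, hidx, ?_, ?_⟩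
  · obtain ⟨e⟩ := SU33.iso_PSU GF9.F9.card
    exact ⟨GF9.F9, inferInstance, inferInstance, GF9.F9.card,
      ⟨(MonoidHom.ofInjective hψinj).symm.trans e⟩⟩
  -- the subgroup preserves the short orbit
  have hHD : ψ.range ≤ stabD ρ := by
    apply range_le_of
    · rw [hψx]
      intro p
      rw [ha p]
      exact (chk_delta p.1 p.2).1
    · rw [hψy]
      intro p
      rw [hb p]
      exact (chk_delta p.1 p.2).2
  -- the mask of a coset
  let Φ : G ⧸ ψ.range → ℕ := fun q => Quotient.liftOn' q (mu ρ) (fun x y hxy => by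
    rw [QuotientGroup.leftRel_apply] at hxy
    have h := mu_mul ρ x (x⁻¹ * y) (hHD hxy)
    rw [mul_inv_cancel_left] at h
    exact h.symm)
  have hΦ : ∀ x : G, Φ (QuotientGroup.mk x) = mu ρ x := fun x => rfl
  -- coset representatives
  have hr0 : ∀ j, j < 100 → ∃ x : G, Rep ρ x (rn j) := fun j hj => hex _ (chk_rn j hj)
  choose! r hr using hr0
  let c : ℕ → G ⧸ ψ.range := fun j => QuotientGroup.mk (r j)
  have hΦc : ∀ j, j < 100 → Φ (c j) = mk j := fun j hj => mu_rep ρ (hr j hj)
  have hmk : ∀ i j, i < 100 → j < 100 → mk i = mk j → i = j := fun i j hi hj h =>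
    List.inj_on_of_nodup_map chk_nodup (List.mem_range.2 hi) (List.mem_range.2 hj) h
  have hcinj : ∀ i j, i < 100 → j < 100 → c i = c j → i = j := fun i j hi hj h =>
    hmk i j hi hj (by rw [← hΦc i hi, ← hΦc j hj, h])
  have hbij : Function.Bijective (fun i : Fin 100 => c i.1) := by
    refine (Nat.bijective_iff_injective_and_card _).2 ⟨?_, ?_⟩
    · intro i j h
      exact Fin.ext (hcinj i.1 j.1 i.2 j.2 h)
    · rw [Nat.card_fin, ← Subgroup.index_eq_card, hidx]
  have hsurj : ∀ q : G ⧸ ψ.range, ∃ j, j < 100 ∧ c j = q := fun q => by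
    obtain ⟨i, hi⟩ := hbij.2 q
    exact ⟨i.1, i.2, hi⟩
  -- the action of the generators on the cosets
  have hact : ∀ (s : G) (ns : ℕ) (acs : ℕ → ℕ), Rep ρ s ns → (∀ j, j < 100 → acs j < 100 ∧
      msk (fun p => tb ns (tb (rn j) p)) 315 = mk (acs j)) → ∀ j, j < 100 →
      s • c j = c (acs j) := by
    intro s ns acs hs hchk j hj
    obtain ⟨h1, h2⟩ := hchk j hj
    obtain ⟨j', hj', e⟩ := hsurj (s • c j)
    have h3 : Φ (s • c j) = mk (acs j) := by
      change Φ (QuotientGroup.mk (s * r j)) = _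
      rw [hΦ, ← h2]
      apply mu_rep
      intro p
      rw [map_mul, Equiv.Perm.mul_apply, hs, hr j hj]
    rw [← e, hΦc j' hj'] at h3
    rw [← e, hmk j' (acs j) hj' h1 h3]
  have hA : ∀ j, j < 100 → a • c j = c (acA j) :=
    hact a 0 acA ha (fun j hj => ⟨(chk_act j hj).1, (chk_act j hj).2.2.1⟩)
  have hB : ∀ j, j < 100 → b • c j = c (acB j) :=
    hact b nB acB hb (fun j hj => ⟨(chk_act j hj).2.1, (chk_act j hj).2.2.2⟩)
  -- the orbit label of a coset
  let E : Fin 100 ≃ G ⧸ ψ.range := Equiv.ofBijective _ hbij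
  let cls : G ⧸ ψ.range → ℕ := fun q => kap (E.symm q).1
  have hcls : ∀ j, j < 100 → cls (c j) = kap j := by
    intro j hj
    have : E.symm (c j) = ⟨j, hj⟩ := by
      rw [Equiv.symm_apply_eq]
      rfl
    change kap (E.symm (c j)).1 = kap j
    rw [this]
  have hK : ψ.range ≤ fixFun cls := by
    apply range_le_of
    · rw [hψx]
      intro q
      obtain ⟨j, hj, rfl⟩ := hsurj q
      rw [hA j hj, hcls j hj, hcls _ (chk_act j hj).1, (chk_kap j hj).1]
    · rw [hψy]
      intro q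
      obtain ⟨j, hj, rfl⟩ := hsurj q
      rw [hB j hj, hcls j hj, hcls _ (chk_act j hj).2.1, (chk_kap j hj).2]
  -- the orbits
  have horb : ∀ (t j0 : ℕ) (tree : List (ℕ × ℕ × ℕ)), j0 < 100 → kap j0 = t →
      treeOK tree [j0] = true → (∀ j, j < 100 → kap j = t → j = j0 ∨ j ∈ tree.map Prod.fst) →
      MulAction.orbit ↥ψ.range (c j0) = c '' {j | j < 100 ∧ kap j = t} := by
    intro t j0 tree hj0 hk0 htree hcov
    have hstep : ∀ s p, (p < 100 ∧ c p ∈ MulAction.orbit ↥ψ.range (c j0)) →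
        (ac s p < 100 ∧ c (ac s p) ∈ MulAction.orbit ↥ψ.range (c j0)) := by
      rintro s p ⟨hp, hpo⟩
      by_cases hs : Nat.beq s 0 = true
      · have e : ac s p = acA p := by unfold ac; rw [hs]; rfl
        rw [e, ← hA p hp]
        exact ⟨(chk_act p hp).1, MulAction.mem_orbit_of_mem_orbit (⟨a, haH⟩ : ↥ψ.range) hpo⟩
      · have e : ac s p = acB p := by
          unfold ac
          rw [Bool.not_eq_true] at hs
          rw [hs]
          rfl
        rw [e, ← hB p hp]
        exact ⟨(chk_act p hp).2.1, MulAction.mem_orbit_of_mem_orbit (⟨b, hbH⟩ : ↥ψ.range) hpo⟩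
    have hreach := tree_reach (fun p => p < 100 ∧ c p ∈ MulAction.orbit ↥ψ.range (c j0)) hstep
      tree [j0] (fun v hv => by
        rw [List.mem_singleton] at hv
        subst hv
        exact ⟨hj0, MulAction.mem_orbit_self _⟩) htree
    apply Set.eq_of_subset_of_subset
    · rintro q ⟨h, rfl⟩
      obtain ⟨j, hj, e⟩ := hsurj (h • c j0)
      refine ⟨j, ⟨hj, ?_⟩, e⟩
      have h1 : cls (h • c j0) = cls (c j0) := hK h.2 (c j0)
      rw [← e, hcls j hj, hcls j0 hj0, hk0] at h1
      exact h1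
    · rintro _ ⟨j, ⟨hj, hkj⟩, rfl⟩
      rcases hcov j hj hkj with rfl | hmem
      · exact MulAction.mem_orbit_self _
      · obtain ⟨x, hx, rfl⟩ := List.mem_map.1 hmem
        exact (hreach x hx).2
  have hncard : ∀ t n : ℕ, ((Finset.range 100).filter (fun j => kap j = t)).card = n →
      (c '' {j | j < 100 ∧ kap j = t}).ncard = n := by
    intro t n hn
    rw [Set.InjOn.ncard_image (fun i hi j hj h => hcinj i j hi.1 hj.1 h)]
    have e : {j | j < 100 ∧ kap j = t} = (↑((Finset.range 100).filter (fun j => kap j = t)) : Set ℕ) := by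
      ext j
      simp
    rw [e, Set.ncard_coe_finset, hn]
  obtain ⟨hj1, hj2, hk1, hk2⟩ := chk_j
  refine ⟨c j1, c j2, ?_, ?_⟩
  · rw [horb 1 j1 tree1 hj1 hk1 chk_tree1 chk_cov1]
    exact hncard 1 36 chk_cnt.1
  · rw [horb 2 j2 tree2 hj2 hk2 chk_tree2 chk_cov2]
    exact hncard 2 63 chk_cnt.2

end

end Cfsg.Agent.Lib.Helper86.J2UMain
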